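import Cfsg.Agent.Classical.PrimeDerangement.TensorCyclic
import Cfsg.Agent.Classical.Semisimple.Singer

/-!
Matrices of determinant one and prime order modulo scalars without invariant symmetric matrices.
-/

set_option autoImplicit false

namespace CfsgLib.Classical.PrimeDerangement.SLOrth

open Matrix Module Polynomial

variable {F : Type*} [Field F] {n : ℕ}

/-- No invertible symmetric matrix is preserved up to scalar by `x`. -/
def NoForm (x : Matrix (Fin n) (Fin n) F) : Prop :=
  ∀ (G : Matrix (Fin n) (Fin n) F) (c : F), Gᵀ = G → G.det ≠ 0 → c ≠ 0 → xᵀ * G * x ≠ c • G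

/-- A transvection. -/
theorem noForm_transvection (h2 : (2 : F) ≠ 0) (hn : 3 ≤ n) :
    NoForm (Matrix.transvection (⟨0, by omega⟩ : Fin n) ⟨1, by omega⟩ (1 : F)) := by
  intro G c hG hdet hc0 hc
  set a : Fin n := ⟨0, by omega⟩
  set b : Fin n := ⟨1, by omega⟩
  have hab : a ≠ b := by simp [a, b, Fin.ext_iff]
  set N : Matrix (Fin n) (Fin n) F := Matrix.single a b 1 with hN
  have key : ∀ i j, G i j + (if i = b then G a j else 0) + (if j = b then G i a else 0) +
      (if i = b ∧ j = b then G a a else 0) = c * G i j := by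
    intro i j
    have h := congrFun (congrFun hc i) j
    have hT : ∀ k l, Matrix.transvection a b (1 : F) k l = (if k = l then 1 else 0) + (if k = a ∧ l = b then 1 else 0) := by
      intro k l
      simp only [Matrix.transvection, Matrix.add_apply, Matrix.one_apply, Matrix.single_apply, eq_comm (a := a),
        eq_comm (a := b)]
    simp only [Matrix.mul_apply, Matrix.transpose_apply, Matrix.smul_apply, smul_eq_mul, hT] at h
    rw [← h]
    simp only [add_mul, mul_add, Finset.sum_add_distrib, ite_and, ite_mul, mul_ite, one_mul, zero_mul, mul_one,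
      mul_zero, Finset.sum_ite_eq', Finset.mem_univ, if_true, Finset.sum_mul]
    by_cases hi : i = b <;> by_cases hj : j = b <;> simp only [hi, hj, if_true, if_false, and_true, true_and, and_self, false_and, and_false, eq_self_iff_true] <;> ring
  -- the multiplier is one
  have hc1 : c = 1 := by
    by_contra hne
    have hz : ∀ i j, i ≠ b → j ≠ b → G i j = 0 := fun i j hi hj => by
      have h := key i j
      simp only [if_neg hi, if_neg hj, if_neg (fun h : i = b ∧ j = b => hi h.1), add_zero] at h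
      exact (mul_eq_zero.1 (show (c - 1) * G i j = 0 by linear_combination -h)).resolve_left (sub_ne_zero.2 hne)
    refine hdet (Matrix.exists_mulVec_eq_zero_iff.1 ?_)
    set e : Fin n := ⟨2, by omega⟩
    have hea : e ≠ a := by simp [a, e, Fin.ext_iff]
    have heb : e ≠ b := by simp [b, e, Fin.ext_iff]
    by_cases hbe : G b a = 0
    · exact ⟨Pi.single a 1, by simp, funext fun i => by
        rw [Matrix.mulVec_single_one, Matrix.col_apply]
        by_cases hi : i = b
        · rw [hi, hbe]; rfl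
        · exact hz i a hi hab⟩
    · refine ⟨G b e • Pi.single a 1 - G b a • Pi.single e 1, fun h => ?_, funext fun i => ?_⟩
      · have := congrFun h e
        simp [hea, hbe] at this
      · simp only [Matrix.mulVec_sub, Matrix.mulVec_smul, Matrix.mulVec_single_one, Pi.sub_apply, Pi.smul_apply,
          Matrix.col_apply, smul_eq_mul, Pi.zero_apply]
        by_cases hi : i = b
        · rw [hi]; ring
        · rw [hz i a hi hab, hz i e hi heb]; ring
  subst hc1
  have hrow : ∀ j, j ≠ b → G a j = 0 := fun j hj => by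
    have h := key b j
    simp only [if_true, hj, if_false, and_false, add_zero, one_mul] at h
    linear_combination h
  have hab' : G a b = 0 := by
    have h := key b b
    simp only [if_true, and_self, one_mul] at h
    have h1 : G b a = G a b := by conv_lhs => rw [← hG, Matrix.transpose_apply]
    rw [h1, hrow a hab] at h
    exact (mul_eq_zero.1 (show (2 : F) * G a b = 0 by linear_combination h)).resolve_left h2
  refine hdet (Matrix.det_eq_zero_of_row_eq_zero a fun j => ?_)
  by_cases hj : j = b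
  · rw [hj, hab']
  · exact hrow j hj

/-- A similitude of a diagonal matrix matches eigenvalue multiplicities. -/
theorem card_fiber_le {w : Fin n → F} (σ : F →+* F) {G : Matrix (Fin n) (Fin n) F} (hdet : G.det ≠ 0) {c : F}
    (hc : ∀ i j, w i * G i j * σ (w j) = c * G i j) [DecidableEq F] {v : F} (hv : v ≠ 0) :
    (Finset.univ.filter fun i => w i = v).card ≤ (Finset.univ.filter fun j => σ (w j) = c / v).card := by
  classical
  set S := Finset.univ.filter fun i => w i = v with hS
  set T := Finset.univ.filter fun j => σ (w j) = c / v with hT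
  let L : (S → F) →ₗ[F] (T → F) :=
    { toFun := fun a j => ∑ i : S, a i * G i j
      map_add' := fun a b => by funext j; simp [add_mul, Finset.sum_add_distrib]
      map_smul' := fun t a => by funext j; simp [Finset.mul_sum, mul_assoc] }
  have hinj : Function.Injective L := by
    refine LinearMap.ker_eq_bot.1 (LinearMap.ker_eq_bot'.2 fun a ha => ?_)
    let a' : Fin n → F := fun i => if h : i ∈ S then a ⟨i, h⟩ else 0
    have h0 : a' = 0 := by
      by_contra hne
      refine hdet (Matrix.exists_vecMul_eq_zero_iff.1 ⟨a', hne, funext fun j => ?_⟩)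
      rw [Pi.zero_apply, Matrix.vecMul, dotProduct, ← Finset.sum_subset (Finset.subset_univ S) (fun i _ hi => by
        simp [a', hi]), ← Finset.sum_coe_sort]
      simp only [a', Finset.coe_mem, dite_true, Subtype.coe_eta]
      by_cases hj : j ∈ T
      · exact congrFun ha ⟨j, hj⟩
      · refine Finset.sum_eq_zero fun i _ => ?_
        have hiv : w i = v := (Finset.mem_filter.1 i.2).2
        have h := hc i j
        have hGz : G i j = 0 := by
          by_contra hG
          refine hj (Finset.mem_filter.2 ⟨Finset.mem_univ _, ?_⟩)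
          rw [eq_div_iff hv]
          have : v * σ (w j) = c := mul_right_cancel₀ hG (by linear_combination h + G i j * σ (w j) * (-hiv))
          linear_combination this
        rw [hGz, mul_zero]
    funext i
    have := congrFun h0 i
    simpa [a', i.2] using this
  simpa using LinearMap.finrank_le_finrank_of_injective hinj

/-- A diagonal matrix with unbalanced multiplicities. -/
theorem noForm_diagonal [DecidableEq F] {w : Fin n → F} (hw : ∀ i, w i ≠ 0) {a l : Fin n}
    (hmax : ∀ v, v ≠ w a → (Finset.univ.filter fun i => w i = v).card < (Finset.univ.filter fun i => w i = w a).card)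
    (hl : (Finset.univ.filter fun i => w i = w a * w a / w l).card < (Finset.univ.filter fun i => w i = w l).card) :
    NoForm (Matrix.diagonal w) := by
  intro G c _ hdet _ hc
  have hc' : ∀ i j, w i * G i j * (RingHom.id F) (w j) = c * G i j := fun i j => by
    have h := congrFun (congrFun hc i) j
    rwa [Matrix.diagonal_transpose, Matrix.mul_diagonal, Matrix.diagonal_mul, Matrix.smul_apply, smul_eq_mul] at h
  have ha := card_fiber_le _ hdet hc' (hw a)
  simp only [RingHom.id_apply] at ha
  have hca : c / w a = w a := by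
    by_contra hne
    exact absurd ha (not_le.2 (hmax _ hne))
  have hl' := card_fiber_le _ hdet hc' (hw l)
  simp only [RingHom.id_apply] at hl'
  rw [(div_eq_iff (hw a)).1 hca] at hl'
  exact absurd hl' (not_le.2 hl)

section diag

variable [DecidableEq F] {r : ℕ} [Fact r.Prime]

/-- One exceptional eigenvalue. -/
theorem exists_noForm_one (hn : 3 ≤ n) (hr2 : r ≠ 2) {ζ μ : F} (hζ : ζ ^ r = 1) (hζ1 : ζ ≠ 1)
    (hμ : μ ^ n * ζ = 1) :
    ∃ X : Matrix (Fin n) (Fin n) F, X.det = 1 ∧ X ^ r = (μ ^ r) • 1 ∧ NoForm X := by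
  classical
  have hμ0 : μ ≠ 0 := fun h => by simp [h, zero_pow (show n ≠ 0 by omega)] at hμ
  have hζ0 : ζ ≠ 0 := fun h => by simp [h, (Fact.out : r.Prime).ne_zero] at hζ
  set a : Fin n := ⟨1, by omega⟩
  set l : Fin n := ⟨0, by omega⟩
  set w : Fin n → F := fun i => μ * if i = l then ζ else 1 with hw
  have hwl : w l = μ * ζ := by simp [hw]
  have hwa : w a = μ := by simp [hw, a, l, Fin.ext_iff]
  have hwi : ∀ i, i ≠ l → w i = μ := fun i hi => by simp [hw, hi]
  have hne : μ * ζ ≠ μ := fun h => hζ1 ((mul_eq_left₀ hμ0).1 h)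
  refine ⟨Matrix.diagonal w, ?_, ?_, noForm_diagonal (fun i => ?_) (a := a) (l := l) (fun v hv => ?_) ?_⟩
  · rw [Matrix.det_diagonal, hw, Finset.prod_mul_distrib, Finset.prod_const, Finset.prod_ite_eq',
      if_pos (Finset.mem_univ _), Finset.card_univ, Fintype.card_fin, hμ]
  · rw [Matrix.diagonal_pow, Matrix.smul_one_eq_diagonal]
    congr 1
    funext i
    show w i ^ r = μ ^ r
    simp only [hw, mul_pow]
    split_ifs <;> simp [hζ]
  · simp only [hw]; split_ifs <;> simp [hμ0, hζ0]
  · rw [hwa] at hv ⊢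
    calc (Finset.univ.filter fun i => w i = v).card ≤ ({l} : Finset (Fin n)).card := by
          refine Finset.card_le_card fun i hi => ?_
          rw [Finset.mem_singleton]
          by_contra hil
          exact hv (by rw [← (Finset.mem_filter.1 hi).2, hwi i hil])
      _ < 2 := by simp
      _ ≤ (Finset.univ \ {l} : Finset (Fin n)).card := by
          rw [Finset.card_univ_diff, Fintype.card_fin, Finset.card_singleton]; omega
      _ ≤ _ := Finset.card_le_card fun i hi => by
          simp only [Finset.mem_sdiff, Finset.mem_singleton, Finset.mem_univ, true_and] at hi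
          exact Finset.mem_filter.2 ⟨Finset.mem_univ _, hwi i hi⟩
  · rw [hwa, hwl]
    calc (Finset.univ.filter fun i => w i = μ * μ / (μ * ζ)).card = 0 := by
          rw [Finset.card_eq_zero, Finset.filter_eq_empty_iff]
          intro i _ hi
          rw [mul_div_mul_left _ _ hμ0, eq_div_iff hζ0] at hi
          by_cases h : i = l
          · rw [h, hwl, mul_assoc] at hi
            have h2 : ζ * ζ = 1 := (mul_eq_left₀ hμ0).1 hi
            obtain ⟨k, hk⟩ := (Fact.out : r.Prime).odd_of_ne_two hr2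
            rw [hk, pow_succ, pow_mul, pow_two, h2, one_pow, one_mul] at hζ
            exact hζ1 hζ
          · rw [hwi i h] at hi
            exact hne hi
      _ < _ := Finset.card_pos.2 ⟨l, Finset.mem_filter.2 ⟨Finset.mem_univ _, hwl⟩⟩

/-- Three exceptional eigenvalues. -/
theorem exists_noForm_three (hn : 7 ≤ n) (hr2 : r ≠ 2) {ζ : F} (hζ : ζ ^ r = 1) (hζ1 : ζ ≠ 1) :
    ∃ X : Matrix (Fin n) (Fin n) F, X.det = 1 ∧ X ^ r = (1 : F) • 1 ∧ NoForm X := by
  classical
  have hζ0 : ζ ≠ 0 := fun h => by simp [h, (Fact.out : r.Prime).ne_zero] at hζ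
  have hζ2 : ζ * ζ ≠ 1 := fun h2 => hζ1 (by
    obtain ⟨k, hk⟩ := (Fact.out : r.Prime).odd_of_ne_two hr2
    rw [hk, pow_succ, pow_mul, pow_two, h2, one_pow, one_mul] at hζ
    exact hζ)
  set l : Fin n := ⟨0, by omega⟩
  set b : Fin n := ⟨1, by omega⟩
  set e : Fin n := ⟨2, by omega⟩
  set a : Fin n := ⟨3, by omega⟩
  have hlb : l ≠ b := by simp [l, b, Fin.ext_iff]
  have hle : l ≠ e := by simp [l, e, Fin.ext_iff]
  have hbe : b ≠ e := by simp [b, e, Fin.ext_iff]
  set w : Fin n → F := Function.update (Function.update (Function.update (1 : Fin n → F) l ζ) b ζ) e ((ζ * ζ)⁻¹) with hw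
  have hwl : w l = ζ := by simp [hw, hlb, hle]
  have hwb : w b = ζ := by simp [hw, hbe]
  have hwe : w e = (ζ * ζ)⁻¹ := by simp [hw]
  have hwi : ∀ i, i ≠ l → i ≠ b → i ≠ e → w i = 1 := fun i h1 h2 h3 => by simp [hw, h1, h2, h3]
  have hwa : w a = 1 := hwi a (by simp [a, l, Fin.ext_iff]) (by simp [a, b, Fin.ext_iff]) (by simp [a, e, Fin.ext_iff])
  have hcases : ∀ i, w i = 1 ∨ ((i = l ∨ i = b) ∧ w i = ζ) ∨ (i = e ∧ w i = (ζ * ζ)⁻¹) := fun i => by
    by_cases h1 : i = l
    · exact Or.inr (Or.inl ⟨Or.inl h1, h1 ▸ hwl⟩)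
    by_cases h2 : i = b
    · exact Or.inr (Or.inl ⟨Or.inr h2, h2 ▸ hwb⟩)
    by_cases h3 : i = e
    · exact Or.inr (Or.inr ⟨h3, h3 ▸ hwe⟩)
    exact Or.inl (hwi i h1 h2 h3)
  refine ⟨Matrix.diagonal w, ?_, ?_, noForm_diagonal (fun i => ?_) (a := a) (l := l) (fun v hv => ?_) ?_⟩
  · rw [Matrix.det_diagonal, hw, Finset.prod_update_of_mem (Finset.mem_univ _),
      Finset.prod_update_of_mem (by simp [hbe]), Finset.prod_update_of_mem (by simp [hlb, hle])]
    simp only [Pi.one_apply, Finset.prod_const_one, mul_one]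
    rw [inv_mul_cancel₀ (mul_ne_zero hζ0 hζ0)]
  · rw [Matrix.diagonal_pow, one_smul, ← Matrix.diagonal_one]
    congr 1
    funext i
    show w i ^ r = 1
    rcases hcases i with h | ⟨-, h⟩ | ⟨-, h⟩ <;> simp [h, hζ, mul_pow, inv_pow]
  · rcases hcases i with h | ⟨-, h⟩ | ⟨-, h⟩ <;> simp [h, hζ0]
  · rw [hwa] at hv ⊢
    calc (Finset.univ.filter fun i => w i = v).card ≤ ({l, b, e} : Finset (Fin n)).card := by
          refine Finset.card_le_card fun i hi => ?_
          have hiv := (Finset.mem_filter.1 hi).2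
          rcases hcases i with h | ⟨h | h, -⟩ | ⟨h, -⟩
          · exact absurd (hiv ▸ h) hv
          all_goals simp [h]
      _ < 4 := by
          have := Finset.card_le_three (a := l) (b := b) (c := e)
          omega
      _ ≤ (Finset.univ \ {l, b, e} : Finset (Fin n)).card := by
          rw [Finset.card_univ_diff, Fintype.card_fin]
          have := Finset.card_le_three (a := l) (b := b) (c := e)
          omega
      _ ≤ _ := Finset.card_le_card fun i hi => by
          simp only [Finset.mem_sdiff, Finset.mem_insert, Finset.mem_singleton, Finset.mem_univ, true_and, not_or] at hi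
          exact Finset.mem_filter.2 ⟨Finset.mem_univ _, hwi i hi.1 hi.2.1 hi.2.2⟩
  · rw [hwa, hwl, one_mul]
    calc (Finset.univ.filter fun i => w i = 1 / ζ).card ≤ 0 := by
          rw [Nat.le_zero, Finset.card_eq_zero, Finset.filter_eq_empty_iff]
          intro i _ hi
          rw [one_div] at hi
          rcases hcases i with h | ⟨-, h⟩ | ⟨-, h⟩ <;> rw [h] at hi
          · exact hζ1 (inv_eq_one.1 hi.symm)
          · exact hζ2 (by nth_rw 1 [hi]; exact inv_mul_cancel₀ hζ0)
          · exact hζ1 ((mul_eq_left₀ hζ0).1 (inv_injective hi))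
      _ < _ := Finset.card_pos.2 ⟨l, Finset.mem_filter.2 ⟨Finset.mem_univ _, hwl⟩⟩

end diag

section blocks

variable [Fintype F] {r : ℕ} [Fact r.Prime]

/-- An irreducible element of order `r`. -/
theorem exists_block (hrF : (r : F) ≠ 0) (hi1 : orderOf (Fintype.card F : ZMod r) ≠ 1) :
    ∃ (A : Matrix (Fin (orderOf (Fintype.card F : ZMod r))) (Fin (orderOf (Fintype.card F : ZMod r))) F) (P : F[X]),
      A ^ r = 1 ∧ A.det = 1 ∧ (∀ v, A *ᵥ v = v → v = 0) ∧ Irreducible P ∧
      P.natDegree = orderOf (Fintype.card F : ZMod r) ∧ aeval A P = 0 := by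
  classical
  set i := orderOf (Fintype.card F : ZMod r) with hi
  have hi0 : 0 < i := Semisimple.orderOf_card_pos hrF
  have hdvd : r ∣ Nat.card (GL (Fin i) F) := by
    rw [Matrix.card_GL_field]
    refine dvd_trans ?_ (Finset.dvd_prod_of_mem _ (Finset.mem_univ (⟨0, hi0⟩ : Fin i)))
    simpa using (Semisimple.dvd_pow_sub_one_iff_orderOf_dvd i).2 (dvd_refl i)
  obtain ⟨A, hA⟩ := exists_prime_orderOf_dvd_card' r hdvd
  have hAr : A ^ r = 1 := hA ▸ pow_orderOf_eq_one A
  have hA1 : A ≠ 1 := fun h => (Fact.out : r.Prime).ne_one (by rw [← hA, h, orderOf_one])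
  obtain ⟨P, hP, -, hPd, hP0⟩ := Semisimple.exists_irreducible_aeval_eq_zero_of_orderOf_eq hrF
    (f := Matrix.toLinAlgEquiv' (A : Matrix (Fin i) (Fin i) F)) (by rw [Module.finrank_fin_fun])
    (by rw [← map_pow, ← Units.val_pow_eq_pow_val, hAr, Units.val_one, map_one])
    (fun h => hA1 (Units.ext ((Matrix.toLinAlgEquiv').injective (h.trans (map_one _).symm))))
  rw [Module.finrank_fin_fun] at hPd
  have hAm : (A : Matrix (Fin i) (Fin i) F) ^ r = 1 := by rw [← Units.val_pow_eq_pow_val, hAr, Units.val_one]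
  refine ⟨(A : Matrix (Fin i) (Fin i) F), P, hAm, ?_, fun v hv => ?_, hP, hPd, ?_⟩
  · exact Semisimple.eq_one_of_pow_eq_one hi1 (by rw [← Matrix.det_pow, hAm, Matrix.det_one])
  · set f : Module.End F (Fin i → F) := Matrix.toLinAlgEquiv' (A : Matrix (Fin i) (Fin i) F) with hf
    have hfr : f ^ r = 1 := by rw [hf, ← map_pow, hAm, map_one]
    obtain ⟨c, hc⟩ := Semisimple.orderOf_dvd_finrank_range hrF hfr
    rw [← hi] at hc
    have hc0 : c ≠ 0 := by
      intro h0
      rw [h0, mul_zero, Submodule.finrank_eq_zero, LinearMap.range_eq_bot, one_smul] at hc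
      exact hA1 (Units.ext ((Matrix.toLinAlgEquiv').injective ((sub_eq_zero.1 hc).trans (map_one _).symm)))
    have htop : LinearMap.range (f - (1 : F) • 1) = ⊤ := by
      refine Submodule.eq_top_of_finrank_eq (le_antisymm (Submodule.finrank_le _) ?_)
      rw [hc, Module.finrank_fin_fun]
      exact Nat.le_mul_of_pos_right _ (Nat.pos_of_ne_zero hc0)
    exact LinearMap.injective_iff_surjective.2 (LinearMap.range_eq_top.1 htop) (by simp [hf, hv])
  · refine (Matrix.toLinAlgEquiv').injective ?_
    rw [map_zero, ← aeval_algHom_apply]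
    exact hP0

/-- Order of `q` modulo `r` odd and not one. -/
theorem exists_noForm_odd (h2 : (2 : F) ≠ 0) (hr2 : r ≠ 2) (hrF : (r : F) ≠ 0)
    (hodd : Odd (orderOf (Fintype.card F : ZMod r))) (hi1 : orderOf (Fintype.card F : ZMod r) ≠ 1)
    (hin : orderOf (Fintype.card F : ZMod r) ≤ n) :
    ∃ X : Matrix (Fin n) (Fin n) F, X.det = 1 ∧ X ^ r = (1 : F) • 1 ∧ NoForm X := by
  classical
  obtain ⟨A, P, hAr, hAd, hfix, hP, hPd, hPA⟩ := exists_block hrF hi1
  generalize hi : orderOf (Fintype.card F : ZMod r) = i at *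
  have hi0 : 0 < i := hi ▸ Semisimple.orderOf_card_pos hrF
  obtain ⟨l, rfl⟩ : ∃ l, n = i + l := ⟨n - i, by omega⟩
  set R := Matrix.reindexAlgEquiv F F (finSumFinEquiv : Fin i ⊕ Fin l ≃ Fin (i + l)) with hR
  set X0 : Matrix (Fin i ⊕ Fin l) (Fin i ⊕ Fin l) F := Matrix.fromBlocks A 0 0 1 with hX0
  refine ⟨R X0, ?_, ?_, fun G c hG hdet hc0 hc => ?_⟩
  · show (Matrix.reindex _ _ X0).det = 1
    rw [Matrix.det_reindex_self, hX0, Matrix.det_fromBlocks_zero₂₁, hAd, Matrix.det_one, mul_one]
  · rw [← map_pow, hX0, Matrix.fromBlocks_diagonal_pow, hAr, one_pow, Matrix.fromBlocks_one, map_one, one_smul]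
  obtain ⟨G, rfl⟩ := R.surjective G
  have hRt : ∀ B, R Bᵀ = (R B)ᵀ := fun B => rfl
  have hG' : Gᵀ = G := R.injective (by rw [hRt, hG])
  have hdet' : G.det ≠ 0 := fun h => hdet (by
    show (Matrix.reindex _ _ G).det = 0
    rw [Matrix.det_reindex_self, h])
  have hc' : X0ᵀ * G * X0 = c • G := R.injective (by rw [map_mul, map_mul, hRt, hc, map_smul])
  have hc1 : c = 1 := by
    have hpow : ∀ k : ℕ, (X0ᵀ) ^ k * G * X0 ^ k = c ^ k • G := by
      intro k
      induction k with
      | zero => simp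
      | succ k ih =>
        rw [pow_succ', pow_succ X0, show X0ᵀ * X0ᵀ ^ k * G * (X0 ^ k * X0) = X0ᵀ * (X0ᵀ ^ k * G * X0 ^ k) * X0 by
          simp [mul_assoc], ih, Matrix.mul_smul, Matrix.smul_mul, hc', smul_smul, pow_succ]
    have h := hpow r
    rw [← Matrix.transpose_pow, hX0, Matrix.fromBlocks_diagonal_pow, hAr, one_pow, Matrix.fromBlocks_one,
      Matrix.transpose_one, one_mul, mul_one] at h
    have hG0 : G ≠ 0 := fun h0 => hdet' (by
      haveI : Nonempty (Fin i ⊕ Fin l) := ⟨Sum.inl ⟨0, hi0⟩⟩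
      rw [h0, Matrix.det_zero])
    refine Semisimple.eq_one_of_pow_eq_one (hi.symm ▸ hi1) (smul_left_injective F hG0 ?_)
    show c ^ r • G = (1 : F) • G
    rw [← h, one_smul]
  subst hc1
  obtain ⟨B, C, D, E, rfl⟩ : ∃ B C D E, G = Matrix.fromBlocks B C D E :=
    ⟨_, _, _, _, (Matrix.fromBlocks_toBlocks G).symm⟩
  rw [Matrix.fromBlocks_transpose, Matrix.fromBlocks_inj] at hG'
  rw [hX0, Matrix.fromBlocks_transpose, Matrix.fromBlocks_multiply, Matrix.fromBlocks_multiply, one_smul,
    Matrix.fromBlocks_inj] at hc'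
  simp only [Matrix.transpose_zero, Matrix.transpose_one, Matrix.mul_zero, Matrix.zero_mul, add_zero, zero_add,
    Matrix.mul_one, Matrix.one_mul] at hc'
  obtain ⟨hB, hC, hD, -⟩ := hc'
  have hC0 : C = 0 := by
    refine Matrix.ext fun a b => ?_
    have hDz : ∀ k, D k = 0 := by
      intro k
      have hD0 : A.det ≠ 0 := by rw [hAd]; exact one_ne_zero
      by_contra hne
      have h1 : (A - 1).det = 0 := Matrix.exists_vecMul_eq_zero_iff.1 ⟨D k, hne, by
        rw [Matrix.vecMul_sub, Matrix.vecMul_one, sub_eq_zero, ← Matrix.mul_apply_eq_vecMul, hD]⟩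
      obtain ⟨v, hv, hv0⟩ := Matrix.exists_mulVec_eq_zero_iff.2 h1
      rw [Matrix.sub_mulVec, Matrix.one_mulVec, sub_eq_zero] at hv0
      exact hv (hfix v hv0)
    rw [← hG'.2.1, Matrix.transpose_apply, hDz b]
    rfl
  subst hC0
  rw [Matrix.det_fromBlocks_zero₁₂, mul_ne_zero_iff] at hdet'
  have hBu : IsUnit B := (Matrix.isUnit_iff_isUnit_det B).2 (isUnit_iff_ne_zero.2 hdet'.1)
  obtain ⟨u, rfl⟩ := hBu
  have hy : (↑u⁻¹ : Matrix (Fin i) (Fin i) F) * Aᵀ * (u : Matrix (Fin i) (Fin i) F) * A = 1 := by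
    simp only [mul_assoc]
    rw [← mul_assoc Aᵀ, hB, Units.inv_mul]
  have hconj : ∀ Q : F[X], aeval ((↑u⁻¹ : Matrix (Fin i) (Fin i) F) * Aᵀ * (u : Matrix (Fin i) (Fin i) F)) Q =
      (↑u⁻¹ : Matrix (Fin i) (Fin i) F) * (aeval A Q)ᵀ * (u : Matrix (Fin i) (Fin i) F) := by
    intro Q
    induction Q using Polynomial.induction_on with
    | C a => simp [Algebra.algebraMap_eq_smul_one]
    | add p q hp hq => rw [map_add, map_add, hp, hq, Matrix.transpose_add, mul_add, add_mul]
    | monomial m a ih =>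
      rw [pow_succ, ← mul_assoc, map_mul, map_mul (aeval A), aeval_X, aeval_X, ih, Matrix.transpose_mul]
      have hcomm : Aᵀ * (aeval A (C a * X ^ m))ᵀ = (aeval A (C a * X ^ m))ᵀ * Aᵀ := by
        have h5 := ((Commute.all (X : F[X]) (C a * X ^ m)).map (aeval A)).eq
        rw [aeval_X] at h5
        rw [← Matrix.transpose_mul, ← Matrix.transpose_mul, h5]
      rw [hcomm]
      simp [mul_assoc]
  rcases Tensor.eval_eq_zero_of_reciprocal hP (hPd ▸ hodd) (x := A) hy
      (u := Pi.single (⟨0, hi0⟩ : Fin i) (1 : F)) (by simp) (by rw [hPA, Matrix.zero_mulVec])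
      (by rw [hconj, hPA, Matrix.transpose_zero, mul_zero, zero_mul, Matrix.zero_mulVec]) with h | h
  all_goals
    obtain ⟨Q, hQ⟩ := dvd_iff_isRoot.2 (show IsRoot P _ from h)
    have hu : IsUnit Q := (hP.isUnit_or_isUnit hQ).resolve_left (not_isUnit_X_sub_C _)
    have h3 := hPA
    rw [hQ, map_mul] at h3
    have h4 := (hu.map (aeval A)).mul_left_eq_zero.1 h3
    rw [map_sub, aeval_X, aeval_C, sub_eq_zero, Algebra.algebraMap_eq_smul_one] at h4
  · have := hfix (Pi.single (⟨0, hi0⟩ : Fin i) (1 : F)) (by rw [h4, one_smul, Matrix.one_mulVec])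
    simp at this
  · have h5 := congrFun (congrFun hAr ⟨0, hi0⟩) ⟨0, hi0⟩
    simp [h4, _root_.smul_pow, ((Fact.out : r.Prime).odd_of_ne_two hr2).neg_one_pow] at h5
    exact h2 (by linear_combination -h5)

/-- A fixed-point-free element of order `r`. -/
theorem exists_fpf (hrF : (r : F) ≠ 0) (hi1 : orderOf (Fintype.card F : ZMod r) ≠ 1)
    (hin : orderOf (Fintype.card F : ZMod r) ∣ n) :
    ∃ X : Matrix (Fin n) (Fin n) F, X.det = 1 ∧ X ^ r = 1 ∧ ∀ v, X *ᵥ v = v → v = 0 := by
  classical
  obtain ⟨A, -, hAr, hAd, hfix, -, -, -⟩ := exists_block hrF hi1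
  generalize orderOf (Fintype.card F : ZMod r) = i at *
  obtain ⟨k, hk⟩ := hin
  let e : Fin i × Fin k ≃ Fin n := finProdFinEquiv.trans (finCongr hk.symm)
  set R := Matrix.reindexAlgEquiv F F e with hR
  refine ⟨R (Matrix.blockDiagonal fun _ => A), ?_, ?_, fun v hv => ?_⟩
  · show (Matrix.reindex e e _).det = 1
    rw [Matrix.det_reindex_self, Matrix.det_blockDiagonal]
    simp [hAd]
  · rw [← map_pow, ← Matrix.blockDiagonal_pow, show ((fun _ : Fin k => A) ^ r) = 1 from funext fun _ => hAr,
      Matrix.blockDiagonal_one, map_one]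
  · funext t
    obtain ⟨⟨a, b⟩, rfl⟩ := e.surjective t
    refine congrFun (hfix (fun a => v (e (a, b))) (funext fun a => ?_)) a
    have h := congrFun hv (e (a, b))
    show _ = v (e (a, b))
    rw [← h]
    show _ = (Matrix.reindex e e (Matrix.blockDiagonal fun _ => A) *ᵥ v) (e (a, b))
    simp [Matrix.mulVec, dotProduct, ← e.sum_comp, Fintype.sum_prod_type, Matrix.blockDiagonal_apply]

end blocks

end CfsgLib.Classical.PrimeDerangement.SLOrth
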