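import Cfsg.Agent.Classical.PrimeDerangement.SLOrth.Forms
import Cfsg.Agent.Classical.Semisimple.Monomial
import Cfsg.Agent.Classical.Semisimple.ConjForm

/-!
Elements with scalar square, and diagonalisable elements of order three or five in dimension three or five,
preserve a quadratic form of any discriminant up to scalar.
-/

set_option autoImplicit false

namespace CfsgLib.Classical.PrimeDerangement.SLOrth

open Cfsg Matrix Module

variable {F : Type*} [Field F] {n : ℕ}

local notation "M" => Matrix (Fin n) (Fin n) F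

/-- A basis of columns with prescribed images gives a matrix conjugation. -/
theorem exists_conj_of_columns {ι : Type*} [Fintype ι] [DecidableEq ι] (e : ι ≃ Fin n) (x : M)
    (v : ι → Fin n → F) (hv : LinearIndependent F v) (Y : Matrix ι ι F)
    (hY : ∀ j, x *ᵥ v j = ∑ i, Y i j • v i) :
    ∃ P : M, P.det ≠ 0 ∧ x * P = P * Matrix.reindex e e Y := by
  refine ⟨Matrix.of fun a j => v (e.symm j) a, ?_, ?_⟩
  · refine IsUnit.ne_zero ((Matrix.isUnit_iff_isUnit_det _).1 (Matrix.linearIndependent_cols_iff_isUnit.1 ?_))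
    exact hv.comp _ e.symm.injective
  · ext a j
    have h := congrFun (hY (e.symm j)) a
    simp only [Matrix.mulVec, dotProduct, Finset.sum_apply, Pi.smul_apply, smul_eq_mul] at h
    simp only [Matrix.mul_apply, Matrix.of_apply, Matrix.reindex_apply, Matrix.submatrix_apply]
    rw [h, ← e.symm.sum_comp]
    exact Finset.sum_congr rfl fun i _ => mul_comm _ _

section cover

variable [Fintype F] {Q : (Fin n → F) → F} (hQ : Geo.IsNondegenerateQuadraticForm Q)
include hQ

/-- Transport of an invariant symmetric matrix. -/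
theorem covered_of_conj (h2 : (2 : F) ≠ 0) (hn : 0 < n) {x : GL (Fin n) F} {P Y S : M} {c : F}
    (hP : P.det ≠ 0) (hxP : (x : M) * P = P * Y) (hS : Sᵀ = S) (hc0 : c ≠ 0) (hY : Yᵀ * S * Y = c • S)
    (hd : S.det = (gramQ hQ).det * P.det ^ 2) :
    ∃ g ∈ Geo.specialLinear (Fin n) F, g⁻¹ * x * g ∈ Geo.quadSimilarityGroup Q := by
  have hu : IsUnit P.det := isUnit_iff_ne_zero.2 hP
  have he : P⁻¹ * (x : M) = Y * P⁻¹ := by
    calc P⁻¹ * (x : M) = P⁻¹ * ((x : M) * P) * P⁻¹ := by
          rw [mul_assoc P⁻¹, mul_assoc (x : M), Matrix.mul_nonsing_inv _ hu, mul_one]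
      _ = _ := by rw [hxP, ← mul_assoc, Matrix.nonsing_inv_mul _ hu, one_mul]
  refine covered_of_form hQ h2 hn (G := (P⁻¹)ᵀ * S * P⁻¹) ?_ ?_ hc0 ?_
  · simp only [Matrix.transpose_mul, Matrix.transpose_transpose, hS, mul_assoc]
  · rw [Matrix.det_mul, Matrix.det_mul, Matrix.det_transpose, Matrix.det_nonsing_inv, hd, Ring.inverse_eq_inv']
    field_simp
  · calc (x : M)ᵀ * ((P⁻¹)ᵀ * S * P⁻¹) * (x : M) = (P⁻¹ * (x : M))ᵀ * S * (P⁻¹ * (x : M)) := by
          simp only [Matrix.transpose_mul, mul_assoc]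
      _ = (P⁻¹)ᵀ * (Yᵀ * S * Y) * P⁻¹ := by rw [he]; simp only [Matrix.transpose_mul, mul_assoc]
      _ = _ := by rw [hY, Matrix.mul_smul, Matrix.smul_mul]

/-- Eigenvalues paired by an involution with a fixed point. -/
theorem covered_of_involution (h2 : (2 : F) ≠ 0) {x : GL (Fin n) F} {P : M} (hP : P.det ≠ 0) {w : Fin n → F}
    (hxP : (x : M) * P = P * Matrix.diagonal w) (τ : Equiv.Perm (Fin n)) (hτ : ∀ i, τ (τ i) = i) {i0 : Fin n}
    (hi0 : τ i0 = i0) {c : F} (hc0 : c ≠ 0) (hc : ∀ i, w i * w (τ i) = c) :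
    ∃ g ∈ Geo.specialLinear (Fin n) F, g⁻¹ * x * g ∈ Geo.quadSimilarityGroup Q := by
  classical
  set t : F := (gramQ hQ).det * P.det ^ 2 * ((Equiv.Perm.sign τ : ℤ) : F)
  set d : Fin n → F := Function.update 1 i0 t with hd
  have hdτ : ∀ i, d (τ i) = d i := fun i => by
    by_cases h : i = i0
    · rw [h, hi0]
    · rw [hd, Function.update_of_ne h, Function.update_of_ne (fun h' => h (by rw [← hτ i, h', hi0]))]
      rfl
  set S : M := Matrix.of fun i j => if τ i = j then d i else 0 with hS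
  have hSP : S = Matrix.diagonal d * Equiv.Perm.permMatrix F τ := by
    ext i j
    rw [Matrix.diagonal_mul, hS]
    simp [Equiv.Perm.permMatrix, PEquiv.toMatrix_apply, Equiv.toPEquiv_apply, mul_ite]
  refine covered_of_conj hQ h2 i0.pos (S := S) hP hxP ?_ hc0 ?_ ?_
  · ext i j
    simp only [hS, Matrix.transpose_apply, Matrix.of_apply]
    by_cases h : τ i = j
    · rw [if_pos h, if_pos (by rw [← h, hτ]), ← h, hdτ]
    · rw [if_neg h, if_neg (fun h' => h (by rw [← h', hτ]))]
  · ext i j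
    rw [Matrix.diagonal_transpose, Matrix.mul_diagonal, Matrix.diagonal_mul, Matrix.smul_apply, smul_eq_mul,
      hS, Matrix.of_apply]
    by_cases h : τ i = j
    · rw [if_pos h, ← h, ← hc i]; ring
    · rw [if_neg h]; ring
  · rw [hSP, Matrix.det_mul, Matrix.det_diagonal, Matrix.det_permutation, hd,
      Finset.prod_update_of_mem (Finset.mem_univ _)]
    simp only [Pi.one_apply, Finset.prod_const_one, mul_one, t]
    rcases Int.units_eq_one_or (Equiv.Perm.sign τ) with h | h <;> rw [h] <;> simp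

/-- An element with scalar square. -/
theorem covered_of_sq (h2 : (2 : F) ≠ 0) (hn : 0 < n) {x : GL (Fin n) F} {z : F}
    (hx : (x : M) * (x : M) = z • 1) :
    ∃ g ∈ Geo.specialLinear (Fin n) F, g⁻¹ * x * g ∈ Geo.quadSimilarityGroup Q := by
  classical
  have hz0 : z ≠ 0 := by
    rintro rfl
    haveI : Nonempty (Fin n) := ⟨⟨0, hn⟩⟩
    have h := congrArg Matrix.det hx
    rw [zero_smul, Matrix.det_zero, Matrix.det_mul, mul_self_eq_zero] at h
    exact ((Matrix.isUnit_iff_isUnit_det _).1 x.isUnit).ne_zero h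
  set T : Module.End F (Fin n → F) := Matrix.toLin' (x : M) with hT
  have hTT : ∀ u, T (T u) = z • u := fun u => by
    simp [hT, Matrix.mulVec_mulVec, hx, Matrix.smul_mulVec]
  by_cases hsq : ∃ w : F, w ^ 2 = z
  · obtain ⟨w, rfl⟩ := hsq
    have hw0 : w ≠ 0 := fun h => hz0 (by rw [h]; simp)
    obtain ⟨a, b, b0, hab, hTb⟩ := Semisimple.exists_eigen_basis_of_sq h2 hw0 hTT
    let e : Fin a ⊕ Fin b ≃ Fin n := finSumFinEquiv.trans (finCongr hab)
    obtain ⟨P, hP, hxP⟩ := exists_conj_of_columns e (x : M) b0 b0.linearIndependent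
      (Matrix.diagonal (Sum.elim (fun _ => w) fun _ => -w)) (fun j => by
        have h := congrArg (fun f : Module.End F (Fin n → F) => f (b0 j)) hTb
        simpa [hT, Matrix.toLin_self] using h)
    rw [Matrix.reindex_apply, Matrix.submatrix_diagonal_equiv] at hxP
    refine covered_of_involution hQ h2 hP hxP 1 (fun _ => rfl) (i0 := ⟨0, hn⟩) rfl (c := w * w)
      (mul_ne_zero hw0 hw0) fun i => ?_
    rw [Equiv.Perm.one_apply, Function.comp_apply]
    rcases e.symm i with k | k <;> simp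
  · push Not at hsq
    have hf : T ^ 2 = z • (1 : Module.End F (Fin n → F)) := LinearMap.ext fun u => by
      rw [pow_two, Module.End.mul_apply, hTT]; rfl
    obtain ⟨k, hk⟩ : ∃ k, k = (n + 1) / 2 := ⟨_, rfl⟩
    obtain ⟨v, hv⟩ := Semisimple.exists_pairs_of_nonsquare hf hsq k
      (by rw [Module.finrank_fin_fun]; omega)
    have hkn : k + k = n := by
      have h := hv.fintype_card_le_finrank
      rw [Fintype.card_sum, Fintype.card_fin, Module.finrank_fin_fun] at h
      omega
    let s : Fin 2 × Fin k ≃ Fin k ⊕ Fin k :=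
      (Equiv.prodCongr finTwoEquiv (Equiv.refl _)).trans (Equiv.boolProdEquivSum _)
    let e : Fin 2 × Fin k ≃ Fin n := s.trans (finSumFinEquiv.trans (finCongr hkn))
    have hk0 : 0 < k := by omega
    let B : Matrix (Fin 2) (Fin 2) F := !![0, z; 1, 0]
    obtain ⟨P, hP, hxP⟩ := exists_conj_of_columns e (x : M) (fun j => ![v j.2, T (v j.2)] j.1)
      (by
        refine (linearIndependent_equiv' s ?_).2 hv
        funext j
        obtain ⟨j1, j2⟩ := j
        fin_cases j1 <;> simp [s, finTwoEquiv, Equiv.boolProdEquivSum])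
      (Matrix.blockDiagonal fun _ => B) (fun j => by
        obtain ⟨j1, j2⟩ := j
        show T _ = _
        rw [Fintype.sum_prod_type, Fin.sum_univ_two]
        fin_cases j1 <;> simp [B, Matrix.blockDiagonal_apply, ite_smul, hTT])
    set t : F := (gramQ hQ).det * P.det ^ 2 / z ^ (k - 1) with ht
    obtain ⟨a, b, hab⟩ : ∃ a b : F, z * a ^ 2 - b ^ 2 = t := by
      obtain ⟨a, b, hab⟩ := FiniteField.exists_root_sum_quadratic
        (f := Polynomial.C z * Polynomial.X ^ 2) (g := -Polynomial.X ^ 2 - Polynomial.C t)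
        (by rw [Polynomial.degree_C_mul hz0, Polynomial.degree_X_pow]; rfl)
        (by rw [Polynomial.degree_sub_C (by simp)]; simp)
        (FiniteField.odd_card_of_char_ne_two (fun h => h2 (by
          haveI : CharP F 2 := ringChar.of_eq h
          exact CharTwo.two_eq_zero)))
      refine ⟨a, b, ?_⟩
      · simp only [Polynomial.eval_mul, Polynomial.eval_C, Polynomial.eval_pow, Polynomial.eval_X,
          Polynomial.eval_sub, Polynomial.eval_neg] at hab
        linear_combination hab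
    let C : Fin k → Matrix (Fin 2) (Fin 2) F := fun i =>
      if i = ⟨0, hk0⟩ then !![a, b; b, z * a] else !![1, 0; 0, z]
    refine covered_of_conj hQ h2 hn (S := Matrix.reindex e e (Matrix.blockDiagonal C)) hP hxP ?_ hz0 ?_ ?_
    · rw [Matrix.transpose_reindex, Matrix.blockDiagonal_transpose]
      congr 2
      funext i
      simp only [C]
      split_ifs <;> (ext p q; fin_cases p <;> fin_cases q <;> simp)
    · simp only [Matrix.reindex_apply, Matrix.transpose_submatrix, Matrix.blockDiagonal_transpose,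
        Matrix.submatrix_mul_equiv, ← Matrix.blockDiagonal_mul, ← Matrix.submatrix_smul]
      rw [show z • (Matrix.blockDiagonal C).submatrix ⇑e.symm ⇑e.symm = (Matrix.blockDiagonal (z • C)).submatrix ⇑e.symm ⇑e.symm from by
        rw [Matrix.blockDiagonal_smul]; rfl]
      congr 2
      funext i
      simp only [C, B, Pi.smul_apply]
      split_ifs <;> (ext p q; fin_cases p <;> fin_cases q <;> simp [Matrix.mul_apply, Fin.sum_univ_two] <;> ring)
    · rw [Matrix.det_reindex_self, Matrix.det_blockDiagonal, ← Finset.mul_prod_erase _ _ (Finset.mem_univ ⟨0, hk0⟩),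
        Finset.prod_congr rfl (g := fun _ => z) fun i hi => by
          simp [C, Finset.ne_of_mem_erase hi, Matrix.det_fin_two],
        Finset.prod_const, Finset.card_erase_of_mem (Finset.mem_univ _), Finset.card_univ, Fintype.card_fin]
      simp only [C, if_true, Matrix.det_fin_two_of]
      rw [show a * (z * a) - b * b = t by linear_combination hab, ht, div_mul_cancel₀ _ (pow_ne_zero _ hz0)]

end cover

section exceptional

variable {r : ℕ} [Fact r.Prime]

/-- Diagonalisation of an element of order dividing `r`. -/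
theorem exists_diag_of_pow_eq_one (hrF : (r : F) ≠ 0) {ζ : F} (hζ : IsPrimitiveRoot ζ r) {x : M}
    (hx : x ^ r = 1) :
    ∃ (P : M) (a : Fin n → Fin r), P.det ≠ 0 ∧ x * P = P * Matrix.diagonal fun i => ζ ^ (a i : ℕ) := by
  classical
  set S : Set (Fin n → F) := {v | ∃ k : Fin r, x *ᵥ v = ζ ^ (k : ℕ) • v} with hS
  have hspan : Submodule.span F S = ⊤ := by
    refine eq_top_iff.2 fun v _ => ?_
    let E : F → Fin n → F := fun ω => ∑ j ∈ Finset.range r, (ω⁻¹) ^ j • ((x ^ j) *ᵥ v)
    have hE : ∀ k : Fin r, E (ζ ^ (k : ℕ)) ∈ S := fun k => by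
      refine ⟨k, ?_⟩
      set ω := ζ ^ (k : ℕ) with hω
      have hω0 : ω ≠ 0 := pow_ne_zero _ (hζ.ne_zero (Fact.out : r.Prime).ne_zero)
      have hωr : (ω⁻¹) ^ r = 1 := by
        rw [inv_pow, hω, ← pow_mul, mul_comm, pow_mul, hζ.pow_eq_one, one_pow, inv_one]
      let f : ℕ → (Fin n → F) := fun j => (ω⁻¹) ^ j • ((x ^ j) *ᵥ v)
      have hper : ∑ j ∈ Finset.range r, f (j + 1) = ∑ j ∈ Finset.range r, f j := by
        have h1 := Finset.sum_range_succ' f r
        rw [Finset.sum_range_succ, show f r = f 0 by simp only [f, hωr, hx, pow_zero]] at h1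
        exact (add_right_cancel h1).symm
      show x *ᵥ (∑ j ∈ Finset.range r, f j) = ω • ∑ j ∈ Finset.range r, f j
      conv_rhs => rw [← hper, Finset.smul_sum]
      rw [Matrix.mulVec_sum]
      refine Finset.sum_congr rfl fun j _ => ?_
      simp only [f, Matrix.mulVec_smul, Matrix.mulVec_mulVec, ← pow_succ', smul_smul]
      rw [pow_succ' ω⁻¹, ← mul_assoc, mul_inv_cancel₀ hω0, one_mul]
    have hsum : ∑ k : Fin r, E (ζ ^ (k : ℕ)) = (r : F) • v := by
      rw [Finset.sum_comm, Finset.sum_eq_single 0]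
      · simp [Nat.cast_smul_eq_nsmul]
      · intro j hj hj0
        rw [← Finset.sum_smul, Fin.sum_univ_eq_sum_range (fun k => (ζ ^ k)⁻¹ ^ j)]
        have hjr : ¬ r ∣ j := fun h => hj0 (Nat.eq_zero_of_dvd_of_lt h (Finset.mem_range.1 hj))
        have hne : ζ⁻¹ ^ j ≠ 1 := fun h => hjr (hζ.inv.dvd_of_pow_eq_one j h)
        rw [show ∑ k ∈ Finset.range r, (ζ ^ k)⁻¹ ^ j = ∑ k ∈ Finset.range r, (ζ⁻¹ ^ j) ^ k from
          Finset.sum_congr rfl fun k _ => by rw [← inv_pow, ← pow_mul, ← pow_mul, mul_comm],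
          geom_sum_eq hne, ← pow_mul, mul_comm, pow_mul, hζ.inv.pow_eq_one, one_pow, sub_self, zero_div, zero_smul]
      · intro h
        exact absurd (Finset.mem_range.2 (Fact.out : r.Prime).pos) h
    rw [show v = (r : F)⁻¹ • ∑ k : Fin r, E (ζ ^ (k : ℕ)) by rw [hsum, inv_smul_smul₀ hrF]]
    exact Submodule.smul_mem _ _ (Submodule.sum_mem _ fun k _ => Submodule.subset_span (hE k))
  obtain ⟨b, hbS, hbspan, hbli⟩ := exists_linearIndependent F S
  rw [hspan] at hbspan
  haveI : Fintype b := hbli.setFinite.fintype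
  let B : Basis b F (Fin n → F) := Basis.mk hbli (by rw [Subtype.range_coe_subtype, Set.setOf_mem_eq, hbspan])
  have hcard : Fintype.card b = n := by rw [← Module.finrank_eq_card_basis B, Module.finrank_fin_fun]
  choose k hk using fun i : b => hbS i.2
  let e : b ≃ Fin n := Fintype.equivFinOfCardEq hcard
  obtain ⟨P, hP, hxP⟩ := exists_conj_of_columns e x (fun i : b => (i : Fin n → F)) hbli
    (Matrix.diagonal fun i => ζ ^ (k i : ℕ)) fun j => by
      rw [hk j, Finset.sum_eq_single j (fun i _ hi => by rw [Matrix.diagonal_apply_ne _ hi, zero_smul])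
        (fun h => absurd (Finset.mem_univ j) h), Matrix.diagonal_apply_eq]
  rw [Matrix.reindex_apply, Matrix.submatrix_diagonal_equiv] at hxP
  exact ⟨P, fun i => k (e.symm i), hP, hxP⟩

theorem sorted_pairing_three : ∀ a b : Fin 3, a ≤ b → b ≤ -(a + b) → ∃ s : Fin 3, ∀ i : Fin 3,
    (![a, b, -(a + b)] : Fin 3 → Fin 3) i + (![a, b, -(a + b)] : Fin 3 → Fin 3) (s - i) =
      (![a, b, -(a + b)] : Fin 3 → Fin 3) 0 + (![a, b, -(a + b)] : Fin 3 → Fin 3) s := by decide

theorem sorted_pairing_five : ∀ a b c d : Fin 5, a ≤ b → b ≤ c → c ≤ d → d ≤ -(a + b + c + d) →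
    ∃ s : Fin 5, ∀ i : Fin 5,
      (![a, b, c, d, -(a + b + c + d)] : Fin 5 → Fin 5) i +
        (![a, b, c, d, -(a + b + c + d)] : Fin 5 → Fin 5) (s - i) =
      (![a, b, c, d, -(a + b + c + d)] : Fin 5 → Fin 5) 0 +
        (![a, b, c, d, -(a + b + c + d)] : Fin 5 → Fin 5) s := by decide

/-- Tuples with zero sum in dimension three or five are symmetric under a reflection. -/
theorem exists_pairing [NeZero r] (hr : r = 3 ∨ r = 5) (a : Fin r → Fin r) (hsum : ∑ i, a i = 0) :
    ∃ (τ : Equiv.Perm (Fin r)) (b : Fin r) (i0 : Fin r), (∀ i, τ (τ i) = i) ∧ τ i0 = i0 ∧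
      ∀ i, a i + a (τ i) = b := by
  set σ := Tuple.sort a with hσ
  have hm : Monotone (a ∘ σ) := Tuple.monotone_sort a
  have hs : ∑ i, (a ∘ σ) i = 0 := by rw [← hsum]; exact Equiv.sum_comp σ a
  suffices h : ∃ (s i0 : Fin r), s - i0 = i0 ∧ ∀ i, (a ∘ σ) i + (a ∘ σ) (s - i) = (a ∘ σ) 0 + (a ∘ σ) s by
    obtain ⟨s, i0, hi0, h⟩ := h
    refine ⟨(σ.symm.trans (Equiv.subLeft s)).trans σ, (a ∘ σ) 0 + (a ∘ σ) s, σ i0, fun i => ?_, ?_, fun i => ?_⟩
    · simp
    · simp [hi0]
    · have h1 := h (σ.symm i)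
      simpa using h1
  generalize a ∘ σ = v at hm hs
  have hfix3 : ∀ s : Fin 3, ∃ i : Fin 3, s - i = i := by decide
  have hfix5 : ∀ s : Fin 5, ∃ i : Fin 5, s - i = i := by decide
  rcases hr with rfl | rfl
  · rw [Fin.sum_univ_three] at hs
    have hv : v = ![v 0, v 1, -(v 0 + v 1)] := by
      funext i; fin_cases i <;> simp [eq_neg_of_add_eq_zero_right hs]
    obtain ⟨s, h⟩ := sorted_pairing_three (v 0) (v 1) (hm (show (0 : Fin 3) ≤ 1 by simp [Fin.le_def]))
      (by rw [← eq_neg_of_add_eq_zero_right hs]; exact hm (show (1 : Fin 3) ≤ 2 by simp [Fin.le_def]))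
    rw [← hv] at h
    obtain ⟨i0, hi0⟩ := hfix3 s
    exact ⟨s, i0, hi0, h⟩
  · rw [Fin.sum_univ_five] at hs
    have hv : v = ![v 0, v 1, v 2, v 3, -(v 0 + v 1 + v 2 + v 3)] := by
      funext i; fin_cases i <;> simp [eq_neg_of_add_eq_zero_right hs]
    obtain ⟨s, h⟩ := sorted_pairing_five (v 0) (v 1) (v 2) (v 3) (hm (show (0 : Fin 5) ≤ 1 by simp [Fin.le_def]))
      (hm (show (1 : Fin 5) ≤ 2 by simp [Fin.le_def])) (hm (show (2 : Fin 5) ≤ 3 by simp [Fin.le_def]))
      (by rw [← eq_neg_of_add_eq_zero_right hs]; exact hm (show (3 : Fin 5) ≤ 4 by simp [Fin.le_def]))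
    rw [← hv] at h
    obtain ⟨i0, hi0⟩ := hfix5 s
    exact ⟨s, i0, hi0, h⟩

/-- The exceptional dimension. -/
theorem covered_of_three_five [Fintype F] {Q : (Fin r → F) → F} (hQ : Geo.IsNondegenerateQuadraticForm Q)
    (h2 : (2 : F) ≠ 0) (hr : r = 3 ∨ r = 5) (hv : padicValNat r (Fintype.card F - 1) = 1)
    {x : GL (Fin r) F} (hdet : (x : Matrix (Fin r) (Fin r) F).det = 1) {z : F}
    (hxz : (x : Matrix (Fin r) (Fin r) F) ^ r = z • 1) :
    ∃ g ∈ Geo.specialLinear (Fin r) F, g⁻¹ * x * g ∈ Geo.quadSimilarityGroup Q := by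
  classical
  have hp : r.Prime := Fact.out
  haveI : NeZero r := ⟨hp.ne_zero⟩
  have hq1 : Fintype.card F - 1 ≠ 0 := by
    have := Fintype.one_lt_card (α := F); omega
  have hdvd : r ∣ Fintype.card F - 1 := dvd_of_one_le_padicValNat hv.ge
  have hdvd2 : ¬ r ^ 2 ∣ Fintype.card F - 1 := fun h => by
    have := (padicValNat_dvd_iff_le hq1).1 h
    omega
  have hrF : (r : F) ≠ 0 := by
    obtain ⟨p, hc⟩ := CharP.exists F
    obtain ⟨m, hpp, hcard⟩ := FiniteField.card F p
    intro h0
    have hpr : p = r := (Nat.prime_dvd_prime_iff_eq hpp hp).1 ((CharP.cast_eq_zero_iff F p r).1 h0)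
    subst hpr
    have h1 := Nat.dvd_sub (dvd_pow_self p m.pos.ne' : p ∣ p ^ (m : ℕ)) (hcard ▸ hdvd)
    rw [show p ^ (m : ℕ) - (p ^ (m : ℕ) - 1) = 1 by have := Nat.one_le_pow (m : ℕ) p hp.pos; omega,
      Nat.dvd_one] at h1
    exact hp.ne_one h1
  have hzr : z ^ r = 1 := by
    have h := congrArg Matrix.det hxz
    rw [Matrix.det_pow, hdet, one_pow, Matrix.det_smul, Matrix.det_one, mul_one, Fintype.card_fin] at h
    exact h.symm
  have hz0 : z ≠ 0 := fun h => by rw [h, zero_pow hp.ne_zero] at hzr; exact zero_ne_one hzr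
  have hz1 : z = 1 := by
    by_cases hpow : ∃ b : F, b ^ r = z
    · obtain ⟨b, hb⟩ := hpow
      have hb0 : b ≠ 0 := fun h => hz0 (by rw [← hb, h, zero_pow hp.ne_zero])
      have h1 : orderOf b ∣ r ^ 2 := orderOf_dvd_of_pow_eq_one (by rw [pow_two, pow_mul, hb, hzr])
      have h2' : orderOf b ∣ Fintype.card F - 1 :=
        orderOf_dvd_of_pow_eq_one (FiniteField.pow_card_sub_one_eq_one b hb0)
      obtain ⟨j, hj, hje⟩ := (Nat.dvd_prime_pow hp).1 h1
      have hj2 : j ≠ 2 := fun h => hdvd2 (by rwa [hje, h] at h2')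
      rw [← hb]
      exact orderOf_dvd_iff_pow_eq_one.1 (hje ▸ (pow_dvd_pow r (show j ≤ 1 by omega)).trans (pow_one r).dvd)
    · exfalso
      have hpow' : ∀ b : F, b ^ r ≠ z := fun b hb => hpow ⟨b, hb⟩
      have hirr : Irreducible (Polynomial.X ^ r - Polynomial.C z) := X_pow_sub_C_irreducible_of_prime hp hpow'
      have hmon : (Polynomial.X ^ r - Polynomial.C z).Monic := Polynomial.monic_X_pow_sub_C z hp.ne_zero
      have hae : Polynomial.aeval (x : Matrix (Fin r) (Fin r) F) (Polynomial.X ^ r - Polynomial.C z) = 0 := by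
        rw [map_sub, map_pow, Polynomial.aeval_X, Polynomial.aeval_C, hxz, Algebra.algebraMap_eq_smul_one, sub_self]
      have hmin := minpoly.eq_of_irreducible_of_monic hirr hae hmon
      have hchar : (x : Matrix (Fin r) (Fin r) F).charpoly = Polynomial.X ^ r - Polynomial.C z := by
        refine (Polynomial.eq_of_monic_of_dvd_of_natDegree_le hmon (Matrix.charpoly_monic _)
          (hmin ▸ Matrix.minpoly_dvd_charpoly _) ?_)
        rw [Matrix.charpoly_natDegree_eq_dim, Fintype.card_fin, Polynomial.natDegree_X_pow_sub_C]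
      have h := Matrix.det_eq_sign_charpoly_coeff (x : Matrix (Fin r) (Fin r) F)
      rw [hdet, hchar, Fintype.card_fin, Polynomial.coeff_sub, Polynomial.coeff_X_pow, Polynomial.coeff_C_zero,
        if_neg hp.ne_zero.symm, zero_sub, Odd.neg_one_pow (hp.odd_of_ne_two (by omega))] at h
      exact hpow' 1 (by rw [one_pow]; linear_combination h)
  rw [hz1, one_smul] at hxz
  obtain ⟨u, hu⟩ := IsCyclic.exists_ofOrder_eq_natCard (α := Fˣ)
  rw [Nat.card_units, Nat.card_eq_fintype_card] at hu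
  set ζ : F := ((u ^ ((Fintype.card F - 1) / r) : Fˣ) : F) with hζdef
  have hζ : IsPrimitiveRoot ζ r := by
    refine IsPrimitiveRoot.coe_units_iff.2 ?_
    refine IsPrimitiveRoot.iff_orderOf.2 ?_
    rw [orderOf_pow_of_dvd (Nat.div_pos (Nat.le_of_dvd (Nat.pos_of_ne_zero hq1) hdvd) hp.pos).ne'
      (by rw [hu]; exact Nat.div_dvd_of_dvd hdvd), hu, Nat.div_div_self hdvd hq1]
  obtain ⟨P, a, hP, hxP⟩ := exists_diag_of_pow_eq_one hrF hζ hxz
  have hsum : ∑ i, a i = 0 := by
    have h := congrArg Matrix.det hxP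
    rw [Matrix.det_mul, Matrix.det_mul, hdet, one_mul, Matrix.det_diagonal, Finset.prod_pow_eq_pow_sum] at h
    have h1 := hζ.dvd_of_pow_eq_one _ (mul_left_cancel₀ hP (by rw [← h, mul_one]))
    have key : ∀ s : Finset (Fin r), ((∑ i ∈ s, a i : Fin r) : ℕ) = (∑ i ∈ s, (a i : ℕ)) % r := fun s => by
      induction s using Finset.induction_on with
      | empty => simp
      | insert j s hj ih => rw [Finset.sum_insert hj, Finset.sum_insert hj, Fin.val_add, ih, Nat.add_mod_mod]
    refine Fin.ext ?_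
    rw [key, Nat.mod_eq_zero_of_dvd h1]
    simp
  obtain ⟨τ, b, i0, hτ, hi0, hab⟩ := exists_pairing hr a hsum
  refine covered_of_involution hQ h2 hP hxP τ hτ hi0 (c := ζ ^ (b : ℕ)) (pow_ne_zero _ (hζ.ne_zero hp.ne_zero))
    fun i => ?_
  rw [← pow_add, ← hab i, Fin.val_add, pow_eq_pow_mod _ hζ.pow_eq_one]

end exceptional

end CfsgLib.Classical.PrimeDerangement.SLOrth
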