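import Cfsg.Agent.Classical.PrimeDerangement.SLOrth.Derange
import Cfsg.Agent.Classical.PrimeDerangement.SLOrth.Two
import Cfsg.Agent.Classical.PrimeDerangement.SLOrth.Index
import Cfsg.Agent.Classical.PrimeDerangement.Orders

/-!
Elements of prime order of a special linear group in conjugates of an orthogonal similarity group.
-/

set_option autoImplicit false

namespace CfsgLib.Classical.PrimeDerangement.SLOrth

open Cfsg Matrix Module

variable {F : Type*} [Field F] [Fintype F] {n : ℕ} {Q : (Fin n → F) → F} {r : ℕ} [Fact r.Prime]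

local notation "q" => Fintype.card F
local notation "M" => Matrix (Fin n) (Fin n) F

/-- Every element of order `r` modulo scalars has a fixed point. -/
def AllCovered (r : ℕ) (Q : (Fin n → F) → F) : Prop :=
  ∀ x ∈ Geo.specialLinear (Fin n) F, (∃ z : F, ((x ^ r : GL (Fin n) F) : M) = z • (1 : M)) →
    (∀ z : F, (x : M) ≠ z • (1 : M)) →
    ∃ g ∈ Geo.specialLinear (Fin n) F, g⁻¹ * x * g ∈ Geo.quadSimilarityGroup Q

omit [Fintype F] in
theorem not_allCovered_of_noForm (hQ : Geo.IsNondegenerateQuadraticForm Q) (h2 : (2 : F) ≠ 0) {X : M} {z : F}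
    (hd : X.det = 1) (hX : X ^ r = z • 1) (h : NoForm X) : ¬ AllCovered r Q := by
  intro hall
  let x : GL (Fin n) F := Matrix.GeneralLinearGroup.mk'' X (by rw [hd]; exact isUnit_one)
  have hx : (x : M) = X := rfl
  obtain ⟨G, c, hG, hG0, hc0, hc⟩ := exists_form_of_covered hQ h2 (hall x (Units.ext hd)
    ⟨z, by rw [Units.val_pow_eq_pow_val, hx, hX]⟩ (fun a ha => by
      have ha' : X = a • 1 := ha
      rcases Nat.eq_zero_or_pos n with hn | hn
      · subst hn
        exact h 1 1 Matrix.transpose_one (by rw [Matrix.det_one]; exact one_ne_zero) one_ne_zero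
          (Subsingleton.elim _ _)
      · have ha0 : a * a ≠ 0 := by
          intro h0
          rw [mul_self_eq_zero] at h0
          haveI : Nonempty (Fin n) := ⟨⟨0, hn⟩⟩
          rw [ha', h0, zero_smul, Matrix.det_zero] at hd
          exact zero_ne_one hd
        refine h 1 (a * a) Matrix.transpose_one (by rw [Matrix.det_one]; exact one_ne_zero) ha0 ?_
        rw [ha', Matrix.transpose_smul, Matrix.transpose_one, mul_one, Matrix.smul_mul, one_mul, smul_smul]))
  exact h G c hG hG0 hc0 (hx ▸ hc)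

omit [Fintype F] [Fact r.Prime] in
theorem transvection_pow (a b : Fin n) (hab : a ≠ b) (k : ℕ) :
    (Matrix.transvection a b (1 : F)) ^ k = Matrix.transvection a b (k : F) := by
  induction k with
  | zero => simp
  | succ k ih => rw [pow_succ, ih, Matrix.transvection_mul_transvection_same _ _ hab, Nat.cast_succ]

/-- The multiplicative order bounds the dimension. -/
theorem orderOf_le (hrF : (r : F) ≠ 0)
    (hr : r ∣ (Geo.quadSimilarityGroup Q).relIndex (Geo.specialLinear (Fin n) F)) :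
    orderOf (q : ZMod r) ≤ n := by
  have hq0 : (q : ZMod r) ≠ 0 := Semisimple.card_ne_zero_mod hrF
  have h : r ∣ Nat.card (GL (Fin n) F) :=
    hr.trans ((Subgroup.relIndex_dvd_card _ _).trans (Subgroup.card_subgroup_dvd_card _))
  rw [Semisimple.card_gl_eq, (Fact.out : r.Prime).dvd_mul] at h
  rcases h with h | h
  · exact absurd ((ZMod.natCast_eq_zero_iff _ _).2 ((Fact.out : r.Prime).dvd_of_dvd_pow h)) hq0
  · obtain ⟨j, hj, hjr⟩ := (Nat.Prime.prime Fact.out).exists_mem_finset_dvd h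
    exact (Nat.le_of_dvd j.succ_pos ((Semisimple.dvd_pow_sub_one_iff_orderOf_dvd _).1 hjr)).trans
      (Finset.mem_range.1 hj)

theorem oddProd_ne_zero (heven : Even (orderOf (q : ZMod r))) (k : ℕ) : ((oddProd q k : ℕ) : ZMod r) ≠ 0 := by
  rw [oddProd, Nat.cast_prod, Finset.prod_ne_zero_iff]
  intro j _ h
  rw [ZMod.natCast_eq_zero_iff, Semisimple.dvd_pow_sub_one_iff_orderOf_dvd] at h
  have := (even_iff_two_dvd.1 heven).trans h
  omega

/-- For even multiplicative order the dimension is even and the type is determined. -/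
theorem data_of_even (hQ : Geo.IsNondegenerateQuadraticForm Q) (h2 : (2 : F) ≠ 0) (hn0 : 0 < n)
    (hrF : (r : F) ≠ 0) (heven : Even (orderOf (q : ZMod r)))
    (hr : r ∣ (Geo.quadSimilarityGroup Q).relIndex (Geo.specialLinear (Fin n) F)) :
    ∃ (m : ℕ) (ε : ℤ), n = 2 * (m + 1) ∧ (ε = 1 ∨ ε = -1) ∧ (q : ZMod r) ^ (m + 1) = -(ε : ZMod r) ∧
      (Nat.card {v // Q v = 0} : ℤ) = (q : ℤ) ^ (2 * m + 1) + ε * ((q : ℤ) ^ (m + 1) - (q : ℤ) ^ m) := by
  have hq0 : (q : ZMod r) ≠ 0 := Semisimple.card_ne_zero_mod hrF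
  have hq2 : 2 ≤ q := Fintype.one_lt_card
  have hdvd := mul_card_dvd hQ hr
  rw [Semisimple.card_gl_eq] at hdvd
  generalize (∑ i ∈ Finset.range n, i) = N at hdvd
  rcases Nat.even_or_odd n with ⟨k, hk⟩ | ⟨m, hm⟩
  · obtain ⟨m, rfl⟩ : ∃ m, k = m + 1 := ⟨k - 1, by omega⟩
    have hn : n = 2 * (m + 1) := by omega
    obtain ⟨ε, hε, hO, hZ⟩ := card_of_even hQ hn
    refine ⟨m, ε, hn, hε, ?_, hZ⟩
    have hd : (r : ℤ) * (Nat.card (Cfsg.isometryGroup F Q) : ℤ) ∣
        2 * ((q : ℤ) ^ N * ((oddProd q (m + 1) * Classical.Orth.evenProd q (m + 1) : ℕ) : ℤ)) := by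
      rw [← prod_two_mul, ← hn]
      exact_mod_cast hdvd
    rw [hO] at hd
    have hE : (Classical.Orth.evenProd q (m + 1) : ℤ) = (Classical.Orth.evenProd q m : ℤ) *
        (((q : ℤ) ^ (m + 1) - ε) * ((q : ℤ) ^ (m + 1) + ε)) := by
      rw [Classical.Orth.evenProd, Finset.prod_range_succ, Classical.Orth.evenProd,
        Nat.cast_mul, Nat.cast_sub (Nat.one_le_pow _ _ (by omega))]
      push_cast
      rcases hε with rfl | rfl <;> ring
    have hne : (q : ℤ) ^ (m + 1) - ε ≠ 0 := by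
      have : (1 : ℤ) < (q : ℤ) ^ (m + 1) := one_lt_pow₀ (by exact_mod_cast hq2) m.succ_ne_zero
      rcases hε with rfl | rfl <;> omega
    have hd' : (r : ℤ) * (q : ℤ) ^ ((m + 1) * m) ∣
        (q : ℤ) ^ N * (oddProd q (m + 1) : ℤ) * ((q : ℤ) ^ (m + 1) + ε) := by
      refine (mul_dvd_mul_iff_left (mul_ne_zero (mul_ne_zero (two_ne_zero : (2 : ℤ) ≠ 0) hne)
        (Int.natCast_ne_zero.2 (evenProd_pos hq2 m).ne'))).1 ?_
      refine (dvd_of_eq ?_).trans (hd.trans (dvd_of_eq ?_))
      · ring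
      · rw [Nat.cast_mul, hE]; ring
    have h0 := (ZMod.intCast_zmod_eq_zero_iff_dvd _ r).2 (dvd_trans (dvd_mul_right _ _) hd')
    push_cast at h0
    have := (mul_eq_zero.1 h0).resolve_left (mul_ne_zero (pow_ne_zero _ hq0) (oddProd_ne_zero heven _))
    linear_combination this
  · exfalso
    rw [card_isometryGroup_of_odd hQ h2 hm, hm, Finset.prod_range_succ, prod_two_mul] at hdvd
    have hd : r * q ^ (m ^ 2) ∣ q ^ N * oddProd q (m + 1) := by
      refine (Nat.mul_dvd_mul_iff_left (Nat.mul_pos two_pos (evenProd_pos hq2 m))).1 ?_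
      rw [oddProd, Finset.prod_range_succ, ← oddProd]
      refine (dvd_of_eq ?_).trans (hdvd.trans (dvd_of_eq ?_)) <;> ring
    have h0 := (ZMod.natCast_eq_zero_iff _ r).2 (dvd_trans (dvd_mul_right _ _) hd)
    push_cast at h0
    exact mul_ne_zero (pow_ne_zero _ hq0) (oddProd_ne_zero heven _) h0

/-- A fixed-point-free element of order `r` lies in no conjugate. -/
theorem not_allCovered_of_even (hQ : Geo.IsNondegenerateQuadraticForm Q) (h2 : (2 : F) ≠ 0) (hn0 : 0 < n)
    (hr2 : r ≠ 2) (hrF : (r : F) ≠ 0) (heven : Even (orderOf (q : ZMod r)))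
    (hr : r ∣ (Geo.quadSimilarityGroup Q).relIndex (Geo.specialLinear (Fin n) F)) : ¬ AllCovered r Q := by
  classical
  intro hall
  obtain ⟨m, ε, hn, hε, hqε, hZ⟩ := data_of_even hQ h2 hn0 hrF heven hr
  have hi1 : orderOf (q : ZMod r) ≠ 1 := fun h => by simp [h] at heven
  have hε2 : (ε : ZMod r) ^ 2 = 1 := by rcases hε with rfl | rfl <;> simp
  obtain ⟨X, hXd, hXr, hfix⟩ := exists_fpf (n := n) hrF hi1 (orderOf_dvd_of_pow_eq_one (by
    rw [hn, mul_comm, pow_mul, hqε, neg_sq, hε2]))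
  let x : GL (Fin n) F := Matrix.GeneralLinearGroup.mk'' X (by rw [hXd]; exact isUnit_one)
  have hx : (x : M) = X := rfl
  obtain ⟨g, -, c, hc⟩ := hall x (Units.ext hXd) ⟨1, by rw [Units.val_pow_eq_pow_val, hx, hXr, one_smul]⟩
    (fun a ha => by
      have ha' : X = a • 1 := ha
      rw [ha', _root_.smul_pow, one_pow] at hXr
      haveI : Nonempty (Fin n) := ⟨⟨0, hn0⟩⟩
      have har : a ^ r = 1 := by
        have := congrFun (congrFun hXr ⟨0, hn0⟩) ⟨0, hn0⟩
        simpa using this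
      have := hfix (fun _ => 1) (by rw [ha', Semisimple.eq_one_of_pow_eq_one hi1 har, one_smul, Matrix.one_mulVec])
      exact one_ne_zero (congrFun this ⟨0, hn0⟩))
  set y : GL (Fin n) F := g⁻¹ * x * g with hy
  have hyr : y ^ r = 1 := by
    have : (g⁻¹ * x * g) ^ r = g⁻¹ * x ^ r * g := by simpa using conj_pow (a := g⁻¹) (b := x) (i := r)
    rw [hy, this, show x ^ r = 1 from Units.ext (by rw [Units.val_pow_eq_pow_val, hx, hXr]; rfl), mul_one,
      inv_mul_cancel]
  have hyfix : ∀ v, (y : M) *ᵥ v = v → v = 0 := fun v hv => by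
    have h1 : (x : M) *ᵥ ((g : M) *ᵥ v) = (g : M) *ᵥ v := by
      conv_rhs => rw [← hv]
      rw [Matrix.mulVec_mulVec, Matrix.mulVec_mulVec, ← Units.val_mul, ← Units.val_mul, hy]
      congr 2
      group
    have h3 := congrArg (fun u => ((g⁻¹ : GL (Fin n) F) : M) *ᵥ u) (hfix _ h1)
    simpa [Matrix.mulVec_mulVec, ← Units.val_mul] using h3
  have hpow : ∀ k : ℕ, ∀ v, Q (((y : M) ^ k) *ᵥ v) = (c : F) ^ k * Q v := by
    intro k
    induction k with
    | zero => intro v; simp
    | succ k ih => intro v; rw [pow_succ, ← Matrix.mulVec_mulVec, ih, hc, pow_succ, mul_assoc]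
  obtain ⟨v₀, hv₀⟩ : ∃ v, Q v ≠ 0 := by
    by_contra h
    push Not at h
    obtain ⟨⟨u, hu⟩, -⟩ := hQ.nondegenerate (Pi.single (⟨0, hn0⟩ : Fin n) 1) (by simp)
    exact hu (by simp [QuadraticMap.polar, h])
  have hc1 : (c : F) = 1 := by
    refine Semisimple.eq_one_of_pow_eq_one hi1 (mul_right_cancel₀ hv₀ ?_)
    rw [← hpow r v₀, ← Units.val_pow_eq_pow_val, hyr, Units.val_one, Matrix.one_mulVec, one_mul]
  set S := {v : Fin n → F // Q v = 0 ∧ v ≠ 0}
  let σ : Equiv.Perm S := Equiv.subtypeEquiv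
    { toFun := fun v => (y : M) *ᵥ v
      invFun := fun v => ((y⁻¹ : GL (Fin n) F) : M) *ᵥ v
      left_inv := fun v => by simp [Matrix.mulVec_mulVec, ← Units.val_mul]
      right_inv := fun v => by simp [Matrix.mulVec_mulVec, ← Units.val_mul] } fun v => by
    show Q v = 0 ∧ v ≠ 0 ↔ Q ((y : M) *ᵥ v) = 0 ∧ (y : M) *ᵥ v ≠ 0
    rw [hc, hc1, one_mul]
    refine and_congr_right fun _ => not_congr ⟨fun h => by rw [h, Matrix.mulVec_zero], fun h => ?_⟩
    have h3 := congrArg (fun u => ((y⁻¹ : GL (Fin n) F) : M) *ᵥ u) h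
    simpa [Matrix.mulVec_mulVec, ← Units.val_mul] using h3
  have hσ : σ ^ r ^ 1 = 1 := by
    have hk : ∀ k : ℕ, ∀ s : S, ((σ ^ k) s).1 = ((y : M) ^ k) *ᵥ s.1 := by
      intro k
      induction k with
      | zero => intro s; simp
      | succ k ih => intro s; rw [pow_succ, Equiv.Perm.mul_apply, ih, pow_succ, ← Matrix.mulVec_mulVec]; rfl
    refine Equiv.ext fun s => Subtype.ext ?_
    rw [pow_one, hk, ← Units.val_pow_eq_pow_val, hyr, Units.val_one, Matrix.one_mulVec]
    rfl
  have hdvd : r ∣ Nat.card S := by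
    rw [Nat.card_eq_fintype_card]
    by_contra h
    obtain ⟨s, hs⟩ := Equiv.Perm.exists_fixed_point_of_prime h hσ
    exact s.2.2 (hyfix _ (congrArg Subtype.val hs))
  have hcard : Nat.card {v // Q v = 0} = Nat.card S + 1 := by
    have h0 : Q 0 = 0 := by simpa using hQ.smul 0 0
    rw [← Nat.card_congr (Equiv.optionSubtypeNe (⟨0, h0⟩ : {v // Q v = 0})), Finite.card_option]
    congr 1
    exact Nat.card_congr
      { toFun := fun s => ⟨s.1.1, s.1.2, fun h => s.2 (Subtype.ext h)⟩
        invFun := fun s => ⟨⟨s.1, s.2.1⟩, fun h => s.2.2 (congrArg Subtype.val h)⟩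
        left_inv := fun s => rfl
        right_inv := fun s => rfl }
  rw [hcard] at hZ
  have hZ' : (1 : ZMod r) = (q : ZMod r) ^ (2 * m + 1) +
      (ε : ZMod r) * ((q : ZMod r) ^ (m + 1) - (q : ZMod r) ^ m) := by
    have := congrArg (Int.cast : ℤ → ZMod r) hZ
    push_cast at this
    rw [(ZMod.natCast_eq_zero_iff _ _).2 hdvd, zero_add] at this
    exact this
  have h2r : (2 : ZMod r) ≠ 0 := fun h => hr2 (by
    have := (ZMod.natCast_eq_zero_iff 2 r).1 (by exact_mod_cast h)
    exact (Nat.prime_dvd_prime_iff_eq Fact.out Nat.prime_two).1 this)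
  refine hi1 (orderOf_eq_one_iff.2 (mul_left_cancel₀ h2r ?_))
  have h1 : (q : ZMod r) ^ (2 * m + 1) * (q : ZMod r) = 1 := by
    rw [← pow_succ, show 2 * m + 1 + 1 = (m + 1) * 2 by ring, pow_mul, hqε, neg_sq, hε2]
  have h3 : (q : ZMod r) ^ m * (q : ZMod r) = -(ε : ZMod r) := by rw [← pow_succ, hqε]
  rw [hqε] at hZ'
  linear_combination (q : ZMod r) * hZ' + h1 - (ε : ZMod r) * h3 + (1 - (q : ZMod r)) * hε2

/-- Every element of order `r` is covered exactly in the exceptional cases. -/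
theorem main (hQ : Geo.IsNondegenerateQuadraticForm Q) (h2 : (2 : F) ≠ 0) (hn : 3 ≤ n)
    (hgap : ¬ (n = 6 ∧ r = 3))
    (hΩ : r ∣ (Geo.quadSimilarityGroup Q).relIndex (Geo.specialLinear (Fin n) F)) :
    AllCovered r Q ↔ (r = 2 ∨ ((r = 3 ∨ r = 5) ∧ n = r ∧ padicValNat r (q - 1) = 1)) := by
  classical
  have hp : r.Prime := Fact.out
  constructor
  · intro hall
    by_contra hno
    push Not at hno
    obtain ⟨hr2, hexc⟩ := hno
    by_cases hrF : (r : F) = 0
    · set a : Fin n := ⟨0, by omega⟩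
      set b : Fin n := ⟨1, by omega⟩
      have hab : a ≠ b := by simp [a, b, Fin.ext_iff]
      exact not_allCovered_of_noForm (r := r) hQ h2 (z := 1) (Matrix.det_transvection_of_ne a b hab _)
        (by rw [transvection_pow a b hab, hrF, Matrix.transvection_zero, one_smul]) (noForm_transvection h2 hn) hall
    by_cases heven : Even (orderOf (q : ZMod r))
    · exact not_allCovered_of_even hQ h2 (by omega) hr2 hrF heven hΩ hall
    by_cases hi1 : orderOf (q : ZMod r) = 1
    · have hdvd : r ∣ Nat.card Fˣ := by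
        rw [Nat.card_units, Nat.card_eq_fintype_card]
        simpa using (Semisimple.dvd_pow_sub_one_iff_orderOf_dvd 1).2 (by rw [hi1])
      obtain ⟨ζu, hζu⟩ := exists_primitive_of_dvd (F := F) hdvd
      have hζ : IsPrimitiveRoot (ζu : F) r := IsPrimitiveRoot.coe_units_iff.2 hζu
      have hζ1 : (ζu : F) ≠ 1 := hζ.ne_one hp.one_lt
      by_cases hrn : r ∣ n
      · by_cases hn7 : 7 ≤ n
        · obtain ⟨X, hd, hX, hNF⟩ := exists_noForm_three hn7 hr2 hζ.pow_eq_one hζ1
          exact not_allCovered_of_noForm hQ h2 hd hX hNF hall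
        · have hr3 : 3 ≤ r := by have := hp.two_le; omega
          have hle : r ≤ n := Nat.le_of_dvd (by omega) hrn
          have hnr : n = r ∧ (r = 3 ∨ r = 5) := by
            interval_cases n <;> interval_cases r <;> simp_all (config := { decide := true })
          obtain ⟨hnr, hr35⟩ := hnr
          have hv : padicValNat r (q - 1) ≠ 1 := hexc hr35 hnr
          have hdvd2 : r ^ 2 ∣ Nat.card Fˣ := by
            rw [Nat.card_units, Nat.card_eq_fintype_card] at hdvd ⊢
            have hq1 : q - 1 ≠ 0 := by have := Fintype.one_lt_card (α := F); omega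
            refine (padicValNat_dvd_iff_le hq1).2 ?_
            have := one_le_padicValNat_of_dvd hq1 hdvd
            omega
          obtain ⟨lu, hlu⟩ := exists_primitive_of_dvd (F := F) hdvd2
          have hl : IsPrimitiveRoot (lu : F) (r ^ 2) := IsPrimitiveRoot.coe_units_iff.2 hlu
          obtain ⟨X, hd, hX, hNF⟩ := exists_noForm_one (n := n) hn hr2 (ζ := ((lu : F) ^ r)⁻¹) (μ := (lu : F))
            (by rw [inv_pow, ← pow_mul, ← pow_two, hl.pow_eq_one, inv_one])
            (fun h => hl.pow_ne_one_of_pos_of_lt hp.ne_zero (by nlinarith [hp.two_le]) (inv_eq_one.1 h))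
            (by rw [hnr, mul_inv_cancel₀ (pow_ne_zero _ lu.ne_zero)])
          exact not_allCovered_of_noForm hQ h2 hd hX hNF hall
      · set k := (-(n : ZMod r)⁻¹).val with hk
        have hμ : ((ζu : F) ^ k) ^ n * (ζu : F) = 1 := by
          rw [← pow_mul, ← pow_succ]
          refine (hζ.pow_eq_one_iff_dvd _).2 ((ZMod.natCast_eq_zero_iff _ _).1 ?_)
          have hn0 : (n : ZMod r) ≠ 0 := fun h => hrn ((ZMod.natCast_eq_zero_iff _ _).1 h)
          rw [Nat.cast_succ, Nat.cast_mul, hk, ZMod.natCast_zmod_val, neg_mul, inv_mul_cancel₀ hn0,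
            neg_add_cancel]
        obtain ⟨X, hd, hX, hNF⟩ := exists_noForm_one hn hr2 hζ.pow_eq_one hζ1 hμ
        exact not_allCovered_of_noForm hQ h2 hd hX hNF hall
    · obtain ⟨X, hd, hX, hNF⟩ := exists_noForm_odd h2 hr2 hrF (Nat.not_even_iff_odd.1 heven) hi1
        (orderOf_le hrF hΩ)
      exact not_allCovered_of_noForm hQ h2 hd hX hNF hall
  · rintro h x hx ⟨z, hz⟩ hns
    rcases h with rfl | ⟨hr35, hnr, hv⟩
    · refine covered_of_sq hQ h2 (by omega) (z := z) ?_
      rw [← pow_two, ← Units.val_pow_eq_pow_val, hz]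
    · subst hnr
      refine covered_of_three_five hQ h2 hr35 hv (congrArg Units.val hx) (z := z) ?_
      rw [← Units.val_pow_eq_pow_val, hz]

end CfsgLib.Classical.PrimeDerangement.SLOrth
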